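import Cfsg.Prelude.Def_LocalEven
import Cfsg.Prelude.Def_TwoFusion
import Cfsg.Agent.SL2.Elements
import Cfsg.Agent.SL2.Basic

set_option autoImplicit false

/-!
Coordinates for a natural `SL₂(F)`-module adapted to a Sylow subgroup of the acting group.
-/

namespace CfsgLib.H29.NaturalModule

open Matrix CfsgLib.SL2
open scoped commutatorElement

variable {F : Type*} [Field F]

/-- The upper unitriangular homomorphism. -/
def upperHom : Multiplicative F →* SpecialLinearGroup (Fin 2) F :=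
  MonoidHom.mk' (fun c => upperU c.toAdd) fun a b => by
    apply ext2 <;> simp [mul00, mul01, mul10, mul11, add_comm]

theorem upperHom_injective : Function.Injective (upperHom (F := F)) := fun a b h => by
  have := congrArg (fun g : SpecialLinearGroup (Fin 2) F => g.1 0 1) h
  simpa [upperHom] using this

theorem exists_sylow_upper [Fintype F] (p : ℕ) [Fact p.Prime] {n : ℕ} (hF : Fintype.card F = p ^ n) :
    ∃ P : Sylow p (SpecialLinearGroup (Fin 2) F),
      (P : Subgroup (SpecialLinearGroup (Fin 2) F)) = (upperHom (F := F)).range := by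
  classical
  have hp := (Fact.out : p.Prime)
  have hn : n ≠ 0 := fun h => by
    have := Fintype.one_lt_card (α := F); rw [hF, h, pow_zero] at this; omega
  refine ⟨Sylow.ofCard (upperHom (F := F)).range ?_, rfl⟩
  rw [← Nat.card_congr (MonoidHom.ofInjective upperHom_injective).toEquiv,
    Nat.card_congr Multiplicative.toAdd, Nat.card_eq_fintype_card, hF, card_SL2, hF]
  congr 1
  have h1 : 1 < p ^ n := hF ▸ Fintype.one_lt_card
  have h2 : (p ^ n) ^ 2 - 1 ≠ 0 := by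
    have : (p ^ n) ^ 1 < (p ^ n) ^ 2 := Nat.pow_lt_pow_right h1 (by norm_num)
    rw [pow_one] at this
    omega
  rw [Nat.factorization_mul (by omega) h2, Finsupp.add_apply, hp.factorization_pow, Finsupp.single_eq_same,
    Nat.factorization_eq_zero_of_not_dvd, add_zero]
  intro hd
  have hpd : p ∣ (p ^ n) ^ 2 := dvd_pow (dvd_pow_self p hn) two_ne_zero
  have h3 := Nat.dvd_sub hpd hd
  rw [Nat.sub_sub_self (Nat.one_le_pow _ _ (by omega))] at h3
  exact hp.one_lt.ne' (Nat.dvd_one.mp h3)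

variable {G : Type*} [Group G]

/-- A coordinatisation. -/
structure Coord (F : Type*) [Field F] (V L T : Subgroup G) where
  /-- the acting group -/
  φ : L ≃* SpecialLinearGroup (Fin 2) F
  /-- the module -/
  Φ : V → Fin 2 → F
  bij : Function.Bijective Φ
  map_mul : ∀ u v : V, Φ (u * v) = Φ u + Φ v
  conj_mem : ∀ (l : L) (v : V), (l : G) * v * (l : G)⁻¹ ∈ V
  conj_eq : ∀ (l : L) (v : V), Φ ⟨(l : G) * v * (l : G)⁻¹, conj_mem l v⟩ =
    (φ l : Matrix (Fin 2) (Fin 2) F) *ᵥ Φ v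
  mem_T : ∀ x : G, x ∈ T ↔ ∃ (l : L) (c : F), (l : G) = x ∧ φ l = upperU c

theorem exists_coord [Finite G] [Fintype F] {p : ℕ} [Fact p.Prime] {n : ℕ}
    (hF : Fintype.card F = p ^ n) {V L : Subgroup G} (hnat : Cfsg.IsNaturalSL2Module F V L)
    (hf : L ⊓ Subgroup.centralizer (V : Set G) = ⊥) (S : Sylow p ↥L) :
    Nonempty (Coord F V L ((S : Subgroup ↥L).map L.subtype)) := by
  classical
  obtain ⟨-, ρ, ψ, hsur, hker, hact⟩ := hnat
  have hinj : Function.Injective ρ := (MonoidHom.ker_eq_bot_iff ρ).mp (by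
    rw [hker, Subgroup.subgroupOf_eq_bot, disjoint_comm, disjoint_iff]; exact hf)
  let φ₀ : L ≃* SpecialLinearGroup (Fin 2) F := MulEquiv.ofBijective ρ ⟨hinj, hsur⟩
  obtain ⟨P, hP⟩ := exists_sylow_upper (F := F) p hF
  obtain ⟨h, hh⟩ : ∃ h : SpecialLinearGroup (Fin 2) F,
      (S : Subgroup L).map φ₀.toMonoidHom = (P : Subgroup _).map (MulAut.conj h).toMonoidHom := by
    let Q : Sylow p (SpecialLinearGroup (Fin 2) F) := S.mapSurjective (f := φ₀.toMonoidHom) φ₀.surjective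
    obtain ⟨h, hh⟩ := MulAction.exists_smul_eq (SpecialLinearGroup (Fin 2) F) P Q
    exact ⟨h, by rw [show (S : Subgroup L).map φ₀.toMonoidHom = (Q : Subgroup _) from rfl, ← hh]; rfl⟩
  let φ : L ≃* SpecialLinearGroup (Fin 2) F := φ₀.trans (MulAut.conj h⁻¹)
  let Φ : V → Fin 2 → F := fun v =>
    ((h⁻¹ : SpecialLinearGroup (Fin 2) F) : Matrix (Fin 2) (Fin 2) F) *ᵥ ψ (Additive.ofMul v)
  have hbij : Function.Bijective Φ := by
    refine Function.Bijective.comp (f := fun v : V => ψ (Additive.ofMul v))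
      (g := fun x => ((h⁻¹ : SpecialLinearGroup (Fin 2) F) : Matrix (Fin 2) (Fin 2) F) *ᵥ x) ?_
      (ψ.bijective.comp Additive.ofMul.bijective)
    have e1 : (h : Matrix (Fin 2) (Fin 2) F) * (h⁻¹ : SpecialLinearGroup (Fin 2) F) = 1 :=
      congrArg Subtype.val (mul_inv_cancel h)
    have e2 : ((h⁻¹ : SpecialLinearGroup (Fin 2) F) : Matrix (Fin 2) (Fin 2) F) * h = 1 :=
      congrArg Subtype.val (inv_mul_cancel h)
    exact Function.bijective_iff_has_inverse.mpr ⟨fun x => (h : Matrix (Fin 2) (Fin 2) F) *ᵥ x,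
      fun x => by simp only [mulVec_mulVec, e1, one_mulVec],
      fun x => by simp only [mulVec_mulVec, e2, one_mulVec]⟩
  have hmem : ∀ (l : L) (v : V), (l : G) * v * (l : G)⁻¹ ∈ V := fun l v => by
    obtain ⟨w, hw, -⟩ := hact l v; exact hw ▸ w.2
  refine ⟨⟨φ, Φ, hbij, fun u v => ?_, hmem, fun l v => ?_, fun x => ?_⟩⟩
  · simp only [Φ, ofMul_mul, map_add, mulVec_add]
  · obtain ⟨w, hw, hw'⟩ := hact l v
    have : (⟨(l : G) * v * (l : G)⁻¹, hmem l v⟩ : V) = w := Subtype.ext hw.symm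
    have e : φ l * h⁻¹ = h⁻¹ * ρ l := by
      change h⁻¹ * ρ l * h⁻¹⁻¹ * h⁻¹ = _
      group
    simp only [Φ, this, hw']
    rw [mulVec_mulVec, mulVec_mulVec]
    exact congrArg (· *ᵥ ψ (Additive.ofMul v)) (congrArg Subtype.val e).symm
  · constructor
    · rintro ⟨l, hl, rfl⟩
      have h1 : φ₀ l ∈ (S : Subgroup L).map φ₀.toMonoidHom := Subgroup.mem_map_of_mem _ hl
      rw [hh, hP] at h1
      obtain ⟨_, ⟨c, rfl⟩, hc⟩ := h1
      refine ⟨l, c.toAdd, rfl, ?_⟩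
      change h⁻¹ * φ₀ l * h⁻¹⁻¹ = _
      rw [← hc, MulEquiv.coe_toMonoidHom, MulAut.conj_apply]
      simp [upperHom, mul_assoc]
    · rintro ⟨l, c, rfl, hc⟩
      refine ⟨l, ?_, rfl⟩
      have h1 : φ₀ l ∈ (S : Subgroup L).map φ₀.toMonoidHom := by
        rw [hh, hP]
        refine ⟨upperU c, ⟨Multiplicative.ofAdd c, rfl⟩, ?_⟩
        rw [← hc]
        change h * (h⁻¹ * φ₀ l * h⁻¹⁻¹) * h⁻¹ = φ₀ l
        group
      exact (Subgroup.mem_map_iff_mem φ₀.injective).mp h1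

namespace Coord

variable {V L T : Subgroup G} (C : Coord F V L T)

theorem map_one : C.Φ 1 = 0 := by
  have h := C.map_mul 1 1
  rw [mul_one] at h
  exact left_eq_add.mp h

theorem map_inv (v : V) : C.Φ v⁻¹ = -C.Φ v := by
  have h := C.map_mul v⁻¹ v
  rw [inv_mul_cancel, C.map_one] at h
  exact eq_neg_of_add_eq_zero_left h.symm

theorem comm_iff (l : L) (v : V) :
    (l : G) * v = v * l ↔ (C.φ l : Matrix (Fin 2) (Fin 2) F) *ᵥ C.Φ v = C.Φ v := by
  rw [← C.conj_eq l v, C.bij.1.eq_iff, Subtype.ext_iff]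
  exact mul_inv_eq_iff_eq_mul.symm

theorem upper_mulVec (c : F) (x : Fin 2 → F) :
    ((upperU c : SpecialLinearGroup (Fin 2) F) : Matrix (Fin 2) (Fin 2) F) *ᵥ x = ![x 0 + c * x 1, x 1] := by
  ext i
  fin_cases i <;> simp [mulVec, dotProduct, Fin.sum_univ_two]

theorem fix_upper {c : F} (hc : c ≠ 0) (x : Fin 2 → F) :
    ((upperU c : SpecialLinearGroup (Fin 2) F) : Matrix (Fin 2) (Fin 2) F) *ᵥ x = x ↔ x 1 = 0 := by
  rw [upper_mulVec]
  constructor
  · intro h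
    have := congrFun h 0
    simpa [hc] using this
  · intro h
    ext i
    fin_cases i <;> simp [h]

theorem exists_mem_T (c : F) : ∃ l : L, (l : G) ∈ T ∧ C.φ l = upperU c :=
  ⟨C.φ.symm (upperU c), (C.mem_T _).mpr ⟨_, c, rfl, C.φ.apply_symm_apply _⟩, C.φ.apply_symm_apply _⟩

theorem mem_CV {x : G} : x ∈ V ⊓ Subgroup.centralizer (T : Set G) ↔ ∃ v : V, (v : G) = x ∧ C.Φ v 1 = 0 := by
  constructor
  · rintro ⟨hxV, hxT⟩
    refine ⟨⟨x, hxV⟩, rfl, ?_⟩
    obtain ⟨l, hlT, hl⟩ := C.exists_mem_T 1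
    have h := (C.comm_iff l ⟨x, hxV⟩).mp (Subgroup.mem_centralizer_iff.mp hxT _ hlT)
    rw [hl] at h
    exact (fix_upper one_ne_zero _).mp h
  · rintro ⟨v, rfl, hv⟩
    refine ⟨v.2, Subgroup.mem_centralizer_iff.mpr fun t ht => ?_⟩
    obtain ⟨l, c, rfl, hl⟩ := (C.mem_T t).mp ht
    refine (C.comm_iff l v).mpr ?_
    rw [hl]
    by_cases hc : c = 0
    · subst hc; rw [upper_mulVec]; ext i; fin_cases i <;> simp
    · exact (fix_upper hc _).mpr hv

/-- The commutator of a module element with an element of `T`. -/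
theorem comm_eq (l : L) {c : F} (hl : C.φ l = upperU c) (v : V) :
    ∃ w : V, (w : G) = ⁅(v : G), (l : G)⁆ ∧ C.Φ w = ![-(c * C.Φ v 1), 0] := by
  refine ⟨v * ⟨(l : G) * (v⁻¹ : V) * (l : G)⁻¹, C.conj_mem l v⁻¹⟩, ?_, ?_⟩
  · simp [commutatorElement_def, mul_assoc]
  · rw [C.map_mul, C.conj_eq, C.map_inv, hl, upper_mulVec]
    ext i
    fin_cases i <;> simp

theorem exists_v1 : ∃ v : V, C.Φ v 1 = 1 := by
  obtain ⟨v, hv⟩ := C.bij.2 ![0, 1]
  exact ⟨v, by rw [hv]; rfl⟩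

theorem eq_of_coords {u w : V} (h0 : C.Φ u 0 = C.Φ w 0) (h1 : C.Φ u 1 = C.Φ w 1) : u = w :=
  C.bij.1 (by ext i; fin_cases i <;> assumption)

include C in
theorem sylow_action [Finite G] [Fintype F] {p : ℕ} {n : ℕ} (hF : Fintype.card F = p ^ n) :
    ⁅⁅V, T⁆, T⁆ = ⊥ ∧ Nat.card V = p ^ (2 * n) ∧
    Nat.card ↥(V ⊓ Subgroup.centralizer (T : Set G)) = p ^ n ∧
    ∀ s ∈ T, s ≠ 1 → (V ⊓ Subgroup.centralizer ({s} : Set G)) = (V ⊓ Subgroup.centralizer (T : Set G)) ∧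
      ⁅V, T⁆ = (V ⊓ Subgroup.centralizer (T : Set G)) ∧
      ⁅V, Subgroup.zpowers s⁆ = (V ⊓ Subgroup.centralizer (T : Set G)) ∧
      ∀ v ∈ V, v ∉ Subgroup.centralizer (T : Set G) →
        Subgroup.closure {x : G | ∃ t ∈ T, x = v * t * v⁻¹ * t⁻¹} =
          (V ⊓ Subgroup.centralizer (T : Set G)) := by
  set W := V ⊓ Subgroup.centralizer (T : Set G) with hW
  have hle : ⁅V, T⁆ ≤ W := Subgroup.commutator_le.mpr fun v hv t ht => by
    obtain ⟨l, c, rfl, hl⟩ := (C.mem_T t).mp ht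
    obtain ⟨w, hw, hw'⟩ := C.comm_eq l hl ⟨v, hv⟩
    exact C.mem_CV.mpr ⟨w, hw, by rw [hw']; rfl⟩
  have hWT : ⁅W, T⁆ = ⊥ := Subgroup.commutator_eq_bot_iff_le_centralizer.mpr inf_le_right
  refine ⟨le_bot_iff.mp ((Subgroup.commutator_mono hle le_rfl).trans hWT.le), ?_, ?_, fun s hs hs1 => ?_⟩
  · rw [Nat.card_congr (Equiv.ofBijective _ C.bij), Nat.card_eq_fintype_card, Fintype.card_fun,
      Fintype.card_fin, hF, ← pow_mul, mul_comm]
  · have e : Nat.card W = Nat.card F := by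
      have hex : ∀ x : W, ∃ v : V, (v : G) = x ∧ C.Φ v 1 = 0 := fun x => C.mem_CV.mp x.2
      choose g hg hg1 using hex
      refine Nat.card_eq_of_bijective (fun x : W => C.Φ (g x) 0) ⟨fun x y hxy => ?_, fun a => ?_⟩
      · have : g x = g y := C.eq_of_coords hxy (by rw [hg1, hg1])
        exact Subtype.ext (by rw [← hg x, ← hg y, this])
      · obtain ⟨v, hv⟩ := C.bij.2 ![a, 0]
        refine ⟨⟨v, C.mem_CV.mpr ⟨v, rfl, by rw [hv]; rfl⟩⟩, ?_⟩
        have : g ⟨v, C.mem_CV.mpr ⟨v, rfl, by rw [hv]; rfl⟩⟩ = v := Subtype.ext (hg _)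
        change C.Φ (g _) 0 = a
        rw [this, hv]; rfl
    rw [e, Nat.card_eq_fintype_card, hF]
  · obtain ⟨l, c, hls, hl⟩ := (C.mem_T s).mp hs
    have hc : c ≠ 0 := by
      rintro rfl
      apply hs1
      have : C.φ l = C.φ 1 := by
        rw [hl, _root_.map_one]; apply ext2 <;> simp
      rw [← hls, C.φ.injective this, Subgroup.coe_one]
    have hz : ⁅V, Subgroup.zpowers s⁆ = W := by
      refine le_antisymm ((Subgroup.commutator_mono le_rfl (Subgroup.zpowers_le.mpr hs)).trans hle) fun x hx => ?_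
      obtain ⟨w, rfl, hw⟩ := C.mem_CV.mp hx
      obtain ⟨v, hv⟩ := C.bij.2 ![0, -(C.Φ w 0 / c)]
      obtain ⟨w', hw', hw''⟩ := C.comm_eq l hl v
      have : w' = w := C.eq_of_coords (by rw [hw'', hv]; simp; field_simp) (by rw [hw'', hw]; rfl)
      rw [← this, hw', hls]
      exact Subgroup.commutator_mem_commutator v.2 (Subgroup.mem_zpowers s)
    refine ⟨?_, le_antisymm hle (hz ▸ Subgroup.commutator_mono le_rfl (Subgroup.zpowers_le.mpr hs)), hz,
      fun v hvV hvT => le_antisymm ((Subgroup.closure_le _).mpr ?_) fun x hx => ?_⟩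
    · refine le_antisymm (fun x hx => ?_) (inf_le_inf_left _ (Subgroup.centralizer_le (by simpa using hs)))
      obtain ⟨hxV, hxs⟩ := hx
      refine C.mem_CV.mpr ⟨⟨x, hxV⟩, rfl, ?_⟩
      have h := (C.comm_iff l ⟨x, hxV⟩).mp (hls ▸ Subgroup.mem_centralizer_iff.mp hxs s rfl)
      rw [hl] at h
      exact (fix_upper hc _).mp h
    · rintro x ⟨t, ht, rfl⟩
      exact hle (Subgroup.commutator_mem_commutator hvV ht)
    · obtain ⟨w, rfl, hw⟩ := C.mem_CV.mp hx
      have hv1 : C.Φ ⟨v, hvV⟩ 1 ≠ 0 := fun h => hvT (C.mem_CV.mpr ⟨⟨v, hvV⟩, rfl, h⟩).2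
      obtain ⟨m, hmT, hm⟩ := C.exists_mem_T (-(C.Φ w 0 / C.Φ ⟨v, hvV⟩ 1))
      obtain ⟨w', hw', hw''⟩ := C.comm_eq m hm ⟨v, hvV⟩
      have : w' = w := C.eq_of_coords (by rw [hw'']; simp; field_simp) (by rw [hw'', hw]; rfl)
      rw [← this, hw']
      exact Subgroup.subset_closure ⟨m, hmT, rfl⟩

include C in
theorem decomposition [Finite G] [Fintype F] {p : ℕ} [Fact p.Prime] {n : ℕ} (hF : Fintype.card F = p ^ n) :
    (∀ g ∈ L, g ∉ Subgroup.normalizer (T : Set G) →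
      Cfsg.IsInternalDirectProduct (V ⊓ Subgroup.centralizer (T : Set G))
        (V ⊓ Subgroup.centralizer ((T.map (MulAut.conj g).toMonoidHom : Subgroup G) : Set G)) V) ∧
    (∀ x ∈ L, x ≠ 1 → (orderOf x).Coprime p → (V ⊓ Subgroup.centralizer ({x} : Set G)) = ⊥) ∧
    (∀ U : Subgroup G, U ≤ (V ⊓ Subgroup.centralizer (T : Set G)) →
      L ⊓ Subgroup.normalizer (T : Set G) ≤ Subgroup.normalizer (U : Set G) →
      U = ⊥ ∨ U = (V ⊓ Subgroup.centralizer (T : Set G))) ∧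
    (∀ U : Subgroup G, (V ⊓ Subgroup.centralizer (T : Set G)) ≤ U → U ≤ V →
      L ⊓ Subgroup.normalizer (T : Set G) ≤ Subgroup.normalizer (U : Set G) →
      U = (V ⊓ Subgroup.centralizer (T : Set G)) ∨ U = V) := by
  classical
  have hnorm : ∀ l : L, (C.φ l).1 1 0 = 0 → (l : G) ∈ Subgroup.normalizer (T : Set G) := by
    intro l hl
    have key : ∀ (m : L), (C.φ m).1 1 0 = 0 → ∀ t ∈ T, (m : G) * t * (m : G)⁻¹ ∈ T := by
      intro m hm t ht
      obtain ⟨k, c, rfl, hk⟩ := (C.mem_T t).mp ht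
      refine (C.mem_T _).mpr ⟨m * k * m⁻¹, (C.φ m).1 0 0 * c * (C.φ m).1 0 0, rfl, ?_⟩
      have hd := det_eq (C.φ m)
      rw [_root_.map_mul, _root_.map_mul, _root_.map_inv, hk]
      apply ext2 <;> simp only [mul00, mul01, mul10, mul11, inv00, inv01, inv10, inv11, upperU_coe, hm] <;>
        simp <;> first | linear_combination hd + (C.φ m).1 0 1 * hm | linear_combination -hd - (C.φ m).1 0 1 * hm | linear_combination hd | linear_combination -hd | ring1
    rw [Subgroup.mem_normalizer_iff]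
    refine fun t => ⟨key l hl t, fun ht => ?_⟩
    have := key l⁻¹ (by rw [_root_.map_inv, inv10, hl, neg_zero]) _ ht
    simpa [mul_assoc] using this
  have diag : ∀ a : Fˣ, ∃ l : L, (l : G) ∈ L ⊓ Subgroup.normalizer (T : Set G) ∧ C.φ l = diagT a := fun a =>
    ⟨C.φ.symm (diagT a), ⟨SetLike.coe_mem _, hnorm _ (by simp)⟩, C.φ.apply_symm_apply _⟩
  have scale : ∀ U : Subgroup G, L ⊓ Subgroup.normalizer (T : Set G) ≤ Subgroup.normalizer (U : Set G) →
      ∀ (v : V), (v : G) ∈ U → ∀ a : Fˣ, ∃ w : V, (w : G) ∈ U ∧ C.Φ w 0 = (a : F) * C.Φ v 0 ∧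
        C.Φ w 1 = (a : F)⁻¹ * C.Φ v 1 := by
    intro U hU v hv a
    obtain ⟨l, hl, hla⟩ := diag a
    refine ⟨⟨_, C.conj_mem l v⟩, (Subgroup.mem_normalizer_iff.mp (hU hl) _).mp hv, ?_, ?_⟩ <;>
      rw [C.conj_eq, hla] <;> simp [mulVec, dotProduct, Fin.sum_univ_two]
  refine ⟨fun g hg hgN => ?_, fun x hx hx1 hcop => ?_, fun U hUle hU => ?_, fun U hWU hUV hU => ?_⟩
  · set W := V ⊓ Subgroup.centralizer (T : Set G) with hW
    set W' := V ⊓ Subgroup.centralizer ((T.map (MulAut.conj g).toMonoidHom : Subgroup G) : Set G) with hW'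
    set m := C.φ ⟨g, hg⟩ with hm
    have hm10 : m.1 1 0 ≠ 0 := fun h => hgN (hnorm ⟨g, hg⟩ h)
    have hmem : ∀ v : V, (v : G) ∈ W' ↔ ((m⁻¹ : SpecialLinearGroup (Fin 2) F) : Matrix (Fin 2) (Fin 2) F) *ᵥ C.Φ v = ![(((m⁻¹ : SpecialLinearGroup (Fin 2) F) : Matrix (Fin 2) (Fin 2) F) *ᵥ C.Φ v) 0, 0] := by
      intro v
      have e1 : (v : G) ∈ W' ↔ g⁻¹ * v * g ∈ W := by
        simp only [hW, hW', Subgroup.mem_inf, Subgroup.mem_centralizer_iff]
        constructor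
        · rintro ⟨-, h⟩
          refine ⟨by simpa using C.conj_mem (⟨g, hg⟩⁻¹ : L) v, fun t ht => ?_⟩
          have := h _ (Subgroup.mem_map_of_mem (MulAut.conj g).toMonoidHom ht)
          simp only [MulEquiv.coe_toMonoidHom, MulAut.conj_apply] at this
          calc t * (g⁻¹ * v * g) = g⁻¹ * ((g * t * g⁻¹) * v) * g := by group
            _ = g⁻¹ * (v * (g * t * g⁻¹)) * g := by rw [this]
            _ = _ := by group
        · rintro ⟨-, h⟩
          refine ⟨v.2, ?_⟩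
          rintro _ ⟨t, ht, rfl⟩
          simp only [MulEquiv.coe_toMonoidHom, MulAut.conj_apply]
          calc g * t * g⁻¹ * (v : G) = g * (t * (g⁻¹ * v * g)) * g⁻¹ := by group
            _ = g * ((g⁻¹ * v * g) * t) * g⁻¹ := by rw [h t ht]
            _ = _ := by group
      have e2 : C.Φ ⟨_, C.conj_mem (⟨g, hg⟩⁻¹ : L) v⟩ =
          ((m⁻¹ : SpecialLinearGroup (Fin 2) F) : Matrix (Fin 2) (Fin 2) F) *ᵥ C.Φ v := by
        rw [C.conj_eq, _root_.map_inv]
      rw [e1, show g⁻¹ * (v : G) * g = (((⟨g, hg⟩⁻¹ : L)) : G) * v * (((⟨g, hg⟩⁻¹ : L)) : G)⁻¹ by simp,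
        C.mem_CV, ← e2]
      constructor
      · rintro ⟨w, hw, hw1⟩
        rw [← show w = ⟨_, C.conj_mem (⟨g, hg⟩⁻¹ : L) v⟩ from Subtype.ext hw]
        ext i; fin_cases i <;> simp [hw1]
      · intro h
        exact ⟨⟨_, C.conj_mem (⟨g, hg⟩⁻¹ : L) v⟩, rfl, by rw [h]; rfl⟩
    refine ⟨inf_le_left, inf_le_left, fun a ha b hb => ?_, ?_, ?_⟩
    · have hc : C.Φ (⟨a, ha.1⟩ * ⟨b, hb.1⟩) = C.Φ (⟨b, hb.1⟩ * ⟨a, ha.1⟩) := by
        rw [C.map_mul, C.map_mul, add_comm]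
      exact congrArg Subtype.val (C.bij.1 hc)
    · refine (Subgroup.eq_bot_iff_forall _).mpr fun x ⟨hx, hx'⟩ => ?_
      obtain ⟨v, rfl, hv⟩ := C.mem_CV.mp hx
      have h := congrFun ((hmem v).mp hx') 1
      simp [mulVec, dotProduct, Fin.sum_univ_two, SpecialLinearGroup.coe_inv, adjugate_fin_two, hv] at h
      have h0 : C.Φ v 0 = 0 := h.resolve_left hm10
      have : v = 1 := C.eq_of_coords (by rw [h0, C.map_one]; rfl) (by rw [hv, C.map_one]; rfl)
      simp [this]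
    · refine le_antisymm (sup_le inf_le_left inf_le_left) fun x hx => ?_
      obtain ⟨u, hu⟩ := C.bij.2 ![m.1 0 0 / m.1 1 0 * C.Φ ⟨x, hx⟩ 1, C.Φ ⟨x, hx⟩ 1]
      have huW : (u : G) ∈ W' := by
        rw [hmem, hu]
        ext i
        fin_cases i
        · simp
        · simp [mulVec, dotProduct, Fin.sum_univ_two, SpecialLinearGroup.coe_inv, adjugate_fin_two]
          field_simp
          ring
      have hxu : ((⟨x, hx⟩ * u⁻¹ : V) : G) ∈ W := C.mem_CV.mpr ⟨_, rfl, by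
        rw [C.map_mul, C.map_inv, hu]; simp⟩
      have := Subgroup.mul_mem_sup hxu huW
      simpa using this
  · refine (Subgroup.eq_bot_iff_forall _).mpr fun v ⟨hvV, hvx⟩ => ?_
    by_contra hv1
    set m := C.φ ⟨x, hx⟩ with hm
    have h := (C.comm_iff ⟨x, hx⟩ ⟨v, hvV⟩).mp (Subgroup.mem_centralizer_iff.mp hvx x rfl)
    rw [← hm] at h
    have hne : C.Φ ⟨v, hvV⟩ ≠ 0 := fun h0 => hv1 (congrArg Subtype.val (C.bij.1 (h0.trans C.map_one.symm)))
    have hdet : ((m : Matrix (Fin 2) (Fin 2) F) - 1).det = 0 :=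
      Matrix.exists_mulVec_eq_zero_iff.mp ⟨_, hne, by rw [sub_mulVec, h, one_mulVec, sub_self]⟩
    have htr : m.1 0 0 + m.1 1 1 = 2 := by
      rw [det_fin_two] at hdet
      simp at hdet
      linear_combination -hdet + det_eq m
    have hN : ((m : Matrix (Fin 2) (Fin 2) F) - 1) ^ 2 = 0 := by
      rw [pow_two]
      have hd := det_eq m
      ext i j
      fin_cases i <;> fin_cases j <;> simp [Matrix.mul_apply, Fin.sum_univ_two]
      · linear_combination (m.1 0 0) * htr - hd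
      · linear_combination (m.1 0 1) * htr
      · linear_combination (m.1 1 0) * htr
      · linear_combination (m.1 1 1) * htr - hd
    have : CharP F p := by
      obtain ⟨r, _⟩ := CharP.exists F
      obtain ⟨k, hr, hk⟩ := FiniteField.card F r
      have h1 : r ∣ p ^ n := hF ▸ hk ▸ dvd_pow_self r k.pos.ne'
      obtain rfl := (Nat.prime_dvd_prime_iff_eq hr Fact.out).mp (hr.dvd_of_dvd_pow h1)
      infer_instance
    have hp2 := (Fact.out : p.Prime).two_le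
    have h0 : ((m : Matrix (Fin 2) (Fin 2) F) - 1) ^ p = 0 := pow_eq_zero_of_le hp2 hN
    rw [sub_pow_char_of_commute p (Commute.one_right _), one_pow, sub_eq_zero] at h0
    have hmp : m ^ p = 1 := Subtype.ext ((Matrix.SpecialLinearGroup.coe_pow m p).trans h0)
    rw [hm, ← _root_.map_pow, ← _root_.map_one C.φ, C.φ.injective.eq_iff] at hmp
    have hxp : x ^ p = 1 := congrArg Subtype.val hmp
    exact hx1 (orderOf_eq_one_iff.mp (Nat.eq_one_of_dvd_coprimes hcop dvd_rfl (orderOf_dvd_of_pow_eq_one hxp)))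
  · rcases U.bot_or_exists_ne_one with hb | ⟨x, hxU, hx1⟩
    · exact Or.inl hb
    refine Or.inr (le_antisymm hUle fun y hy => ?_)
    obtain ⟨v, rfl, hv⟩ := C.mem_CV.mp (hUle hxU)
    obtain ⟨u, rfl, hu⟩ := C.mem_CV.mp hy
    have hv0 : C.Φ v 0 ≠ 0 := fun h0 => hx1 (by
      have : v = 1 := C.eq_of_coords (by rw [h0, C.map_one]; rfl) (by rw [hv, C.map_one]; rfl)
      simp [this])
    by_cases hu0 : C.Φ u 0 = 0
    · have : u = 1 := C.eq_of_coords (by rw [hu0, C.map_one]; rfl) (by rw [hu, C.map_one]; rfl)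
      simp [this]
    obtain ⟨w, hwU, hw0, hw1⟩ := scale U hU v hxU (Units.mk0 (C.Φ u 0 / C.Φ v 0) (div_ne_zero hu0 hv0))
    have : w = u := C.eq_of_coords (by rw [hw0, Units.val_mk0, div_mul_cancel₀ _ hv0]) (by rw [hw1, hv, hu, mul_zero])
    exact this ▸ hwU
  · by_cases hle : U ≤ V ⊓ Subgroup.centralizer (T : Set G)
    · exact Or.inl (le_antisymm hle hWU)
    refine Or.inr (le_antisymm hUV fun y hy => ?_)
    obtain ⟨x, hxU, hxW⟩ := Set.not_subset.mp hle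
    have hx1 : C.Φ ⟨x, hUV hxU⟩ 1 ≠ 0 := fun h => hxW (C.mem_CV.mpr ⟨_, rfl, h⟩)
    by_cases hy1 : C.Φ ⟨y, hy⟩ 1 = 0
    · exact hWU (C.mem_CV.mpr ⟨_, rfl, hy1⟩)
    obtain ⟨w, hwU, -, hw1⟩ := scale U hU ⟨x, hUV hxU⟩ hxU
      (Units.mk0 (C.Φ ⟨x, hUV hxU⟩ 1 / C.Φ ⟨y, hy⟩ 1) (div_ne_zero hx1 hy1))
    rw [Units.val_mk0, inv_div, div_mul_cancel₀ _ hx1] at hw1
    have h2 : ((⟨y, hy⟩ * w⁻¹ : V) : G) ∈ U := hWU (C.mem_CV.mpr ⟨_, rfl, by
      rw [C.map_mul, C.map_inv, Pi.add_apply, Pi.neg_apply, hw1, add_neg_cancel]⟩)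
    have := U.mul_mem h2 hwU
    simpa using this

end Coord

end CfsgLib.H29.NaturalModule
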